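import Cfsg.Agent.H5.HeG.C1.Main
import Cfsg.Agent.H5.HeG.C2.Main
import Cfsg.Agent.H5.HeG.C3.Main
import Cfsg.Agent.H5.PG
import Cfsg.Agent.H6.He.Main
import Cfsg.Agent.H6.More3

set_option autoImplicit false
set_option maxRecDepth 100000

namespace Cfsg.H6.HeG

def sg : List (List ℕ) := [[], [2, 4, 3, 4, 6, 4, 3, 4, 3, 4, 6, 4, 3, 4, 2], [7, 4, 5, 6, 4, 3, 4, 5, 6, 4, 7], [4, 5, 7, 4, 3, 4, 5, 7, 4], [1, 2, 4, 3, 4, 7, 4, 3, 4, 3, 4, 7, 4, 3, 4, 2, 1], [1, 4, 3, 2, 5, 4, 3, 2, 4, 3, 7, 4, 3, 4, 7, 3, 4, 2, 3, 4, 5, 2, 3, 4, 7], [1, 4, 3, 7, 4, 3, 2, 4, 3, 5, 6, 4, 7, 5, 4, 6, 3, 4, 2, 3, 4, 7, 3, 4], [1, 2, 4, 5, 7, 4, 3, 2, 4, 7, 6, 4, 3, 4, 6, 7, 4, 2, 3, 4, 7, 5, 4, 2, 1], [2, 5, 4, 3, 4, 5, 7, 4, 3, 2, 4, 3, 4, 2, 3, 4, 2, 3, 4, 7, 5, 4, 3, 4, 5, 2]]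

def tau : List (List ℕ) := [[1, 2, 3, 8, 5, 8, 5, 1], [1, 6, 2, 3, 7, 3, 2, 1, 6], [5, 8, 3, 2, 5, 8], [6, 5, 6, 2, 3, 4, 7, 8, 3, 7, 6, 4, 5, 6, 3], [1, 4, 1, 4], [1, 3, 2, 1, 2, 3], [7, 3, 4, 3, 7]]

theorem good_sg : Good (evS He.ev sg) 148080050112590643456 := He.main.2.2.good_evS (by decide +kernel)

theorem gen_sg : gen (evS He.ev sg) X = ⊤ := by
  rw [eq_top_iff, ← He.hX]
  refine gen_le (He.main.2.2.mem_of_words (W := tau.map (subst sg)) (fun u hu => ?_)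
    (by decide +kernel))
  obtain ⟨w, -, rfl⟩ := List.mem_map.mp hu
  rw [← evL_subst]
  exact evL_mem_of_letters fun x _ => mem_gen_of_topChk (m := 9) good_sg (by decide +kernel) x

/-- Elements satisfying the relators of the amalgam generate an image of the Held group. -/
theorem lift_he {G : Type*} [Group G] {ev' : ℕ → G} (h : Good ev' 148080050112590643456)
    (h' : Rels ev' R) : ∃ φ : Spor.He →* G, ∀ l, φ (evS He.ev sg l) = ev' l := by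
  have g := H5.pg_good 148080050112590643456 R
  have r := H5.pg_rels 148080050112590643456 R
  exact H5.exists_hom_of_UB (X := X) (N := 4030387200) good_sg
    (He.main.2.2.rels_evS (by decide +kernel)) h h' (H5.pg_gen (n := 9) (by norm_num) (by decide))
    (((UB.bot.cover (C3.cover g r)).cover (C2.cover g r)).cover (C1.cover g r)) gen_sg
    He.main.1.ge

end Cfsg.H6.HeG
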